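import Mathlib
import Cfsg.Agent.Lib.Helper99.Quad3
import Cfsg.Agent.Lib.Helper45.OrthZeros

/-!
# Zero counts of nondegenerate even-dimensional quadratic spaces over a finite field
(all characteristics)

`#{v | Q v = 0} = q^(2e-1) + q^e - q^(e-1)` if the space (of dimension `2e ≥ 2`) contains a
totally singular `e`-space, and `q^(2e-1) + q^(e-1) - q^e` otherwise.
-/

set_option autoImplicit false

namespace Cfsg.Agent.Lib.Helper67.OTSP

open Module QuadraticMap Cfsg.Agent.Lib.Helper99

universe u

section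

variable {F : Type u} [Field F] [Fintype F] {V : Type*} [AddCommGroup V] [Module F V]
  [FiniteDimensional F V]

omit [FiniteDimensional F V] in
/-- zero count from a hyperbolic basis -/
theorem card_zeros_of_hyp_basis (Q : QuadraticForm F V) {k : ℕ} (hk : 1 ≤ k)
    (b : Basis (Fin k ⊕ Fin k) F V)
    (hH : HypFam Q (fun i => b (Sum.inl i)) (fun i => b (Sum.inr i))) :
    Nat.card {v : V // Q v = 0} =
      Fintype.card F ^ (2 * k - 1) + Fintype.card F ^ k - Fintype.card F ^ (k - 1) := by
  classical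
  have hQv : ∀ v : V, Q v = Cfsg.quadFormPlus k F (b.equivFun v) := by
    intro v
    have h1 := hyp_eval Q _ _ hH (fun i => b.repr v (Sum.inl i)) (fun i => b.repr v (Sum.inr i)) 0
      (fun i => by simp)
    have h2 : ∑ i, b.repr v (Sum.inl i) • b (Sum.inl i) +
        ∑ i, b.repr v (Sum.inr i) • b (Sum.inr i) + 0 = v := by
      rw [add_zero]
      have h3 := b.sum_repr v
      rw [Fintype.sum_sum_type] at h3
      exact h3
    rw [h2, map_zero, add_zero] at h1
    rw [h1]
    rfl
  have e1 : {v : V // Q v = 0} ≃ {c : Fin k ⊕ Fin k → F // Cfsg.quadFormPlus k F c = 0} :=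
    Equiv.subtypeEquiv b.equivFun.toEquiv (fun v => by rw [hQv]; rfl)
  rw [Nat.card_congr e1]
  exact Cfsg.Agent.Lib.Helper45.card_zeros_plus rfl k hk

/-- zero count of a space of plus type -/
theorem card_zeros_plus_space (Q : QuadraticForm F V) (hQ : QNondegOn Q ⊤) (e : ℕ) (he : 1 ≤ e)
    (hdim : finrank F V = 2 * e) (U : Submodule F V) (hU : ∀ u ∈ U, Q u = 0)
    (hUd : finrank F U = e) :
    Nat.card {v : V // Q v = 0} =
      Fintype.card F ^ (2 * e - 1) + Fintype.card F ^ e - Fintype.card F ^ (e - 1) := by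
  classical
  obtain ⟨e', f', hH, -⟩ := hyp_of_singular Q e ⊤ U hQ le_top hU hUd.ge
  obtain ⟨b, hb1, hb2, -⟩ := mkBasis' Q e' f' hH (Fin.elim0 : Fin 0 → V)
    linearIndependent_empty_type (fun j => j.elim0) (by simp [hdim])
  apply card_zeros_of_hyp_basis Q he (b.reindex (Equiv.sumEmpty (Fin e ⊕ Fin e) (Fin 0)))
  have h1 : (fun i => (b.reindex (Equiv.sumEmpty (Fin e ⊕ Fin e) (Fin 0))) (Sum.inl i)) = e' := by
    funext i
    rw [Basis.reindex_apply]
    exact hb1 i
  have h2 : (fun i => (b.reindex (Equiv.sumEmpty (Fin e ⊕ Fin e) (Fin 0))) (Sum.inr i)) = f' := by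
    funext i
    rw [Basis.reindex_apply]
    exact hb2 i
  rw [h1, h2]
  exact hH

/-- zero count of a space not of plus type -/
theorem card_zeros_minus_space (Q : QuadraticForm F V) (hQ : Q.polarBilin.Nondegenerate)
    (e : ℕ) (he : 1 ≤ e) (hdim : finrank F V = 2 * e)
    (hno : ¬ ∃ U : Submodule F V, (∀ u ∈ U, Q u = 0) ∧ finrank F U = e) :
    Nat.card {v : V // Q v = 0} =
      Fintype.card F ^ (2 * e - 1) + Fintype.card F ^ (e - 1) - Fintype.card F ^ e := by
  classical
  obtain ⟨k, e', f', hH, h⟩ := witt Q hQ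
  rcases h with ⟨b, hb1, hb2⟩ | ⟨x, b, -⟩ |
    ⟨x, y, b, hx, hxy, hy, hxe, hye, hb1, hb2, hbx, hby⟩
  · exfalso
    apply hno
    have hk : k = e := by
      have := finrank_eq_card_basis b
      simp only [Fintype.card_sum, Fintype.card_fin] at this
      omega
    refine ⟨Submodule.span F (Set.range e'), ?_, ?_⟩
    · intro u hu
      obtain ⟨a, rfl⟩ := (Submodule.mem_span_range_iff_exists_fun F).1 hu
      exact sing_sum Q _ e' a (fun i => (hH.1 i).1) (fun i j => (hH.2.2 i j).1)
    · have hli : LinearIndependent F e' := by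
        have : e' = b ∘ Sum.inl := funext (fun i => (hb1 i).symm)
        rw [this]
        exact b.linearIndependent.comp _ Sum.inl_injective
      rw [finrank_span_eq_card hli, Fintype.card_fin, hk]
  · exfalso
    have := finrank_eq_card_basis b
    simp only [Fintype.card_sum, Fintype.card_fin, Fintype.card_unit] at this
    omega
  · have hk : e = k + 1 := by
      have := finrank_eq_card_basis b
      simp only [Fintype.card_sum, Fintype.card_fin] at this
      omega
    subst hk
    have hH' : HypFam Q (fun i => b (Sum.inl (Sum.inl i))) (fun i => b (Sum.inl (Sum.inr i))) := by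
      have h1 : (fun i => b (Sum.inl (Sum.inl i))) = e' := funext hb1
      have h2 : (fun i => b (Sum.inl (Sum.inr i))) = f' := funext hb2
      rw [h1, h2]
      exact hH
    have hperp : ∀ (j : Fin 2) (i : Fin k),
        polar Q (b (Sum.inr j)) (b (Sum.inl (Sum.inl i))) = 0 ∧
        polar Q (b (Sum.inr j)) (b (Sum.inl (Sum.inr i))) = 0 := by
      intro j i
      rw [hb1, hb2]
      fin_cases j
      · simpa [hbx] using hxe i
      · simpa [hby] using hye i
    have hQv : ∀ v : V, Q v = Cfsg.quadFormMinus k F 1 (Q y) (b.equivFun v) := by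
      intro v
      rw [basis_eval Q b hH' hperp v, Fin.sum_univ_two, hbx, hby]
      have h3 : Q (b.repr v (Sum.inr 0) • x + b.repr v (Sum.inr 1) • y) =
          Q (b.repr v (Sum.inr 0) • x) + Q (b.repr v (Sum.inr 1) • y) +
            polar Q (b.repr v (Sum.inr 0) • x) (b.repr v (Sum.inr 1) • y) :=
        QuadraticMap.map_add Q _ _
      rw [h3, QuadraticMap.map_smul, QuadraticMap.map_smul, polar_smul_left, polar_smul_right,
        hx, hxy]
      simp only [Cfsg.quadFormMinus, Basis.equivFun_apply, smul_eq_mul]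
      ring
    have hab : ∀ z₁ z₂ : F, z₁ ^ 2 + 1 * z₁ * z₂ + Q y * z₂ ^ 2 = 0 → z₁ = 0 ∧ z₂ = 0 := by
      intro z₁ z₂ h
      by_cases hz : z₂ = 0
      · subst hz
        have h' : z₁ ^ 2 = 0 := by simpa using h
        exact ⟨pow_eq_zero_iff (two_ne_zero) |>.1 h', rfl⟩
      · exfalso
        apply hy (z₁ / z₂)
        field_simp
        linear_combination h
    have e1 : {v : V // Q v = 0} ≃
        {c : (Fin k ⊕ Fin k) ⊕ Fin 2 → F // Cfsg.quadFormMinus k F 1 (Q y) c = 0} :=
      Equiv.subtypeEquiv b.equivFun.toEquiv (fun v => by rw [hQv]; rfl)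
    rw [Nat.card_congr e1]
    exact Cfsg.Agent.Lib.Helper45.card_zeros_minus rfl (k + 1) (by omega) 1 (Q y) hab

end

end Cfsg.Agent.Lib.Helper67.OTSP
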