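import Mathlib
import Cfsg.Agent.Lib.Helper99.OTSP.Defs2
import Cfsg.Agent.Lib.Helper53.OTSP.Ord
import Cfsg.Agent.Lib.Helper44.SiegelOmega
import Cfsg.Agent.Lib.Helper67.OTSP.Zeros
import Cfsg.Agent.Lib.Helper67.OTS.CountMinus
import Cfsg.Agent.Lib.Helper67.OTS.CountPlus

/-!
# OTSP (S5973), packages [TYPEW] and [TYPEN] (all characteristics)

`i = ord_r(q)` even, `W ≤ movSp y` invariant and nondegenerate: `W` is of plus type iff
`dim W / i` is even.  Proof: `⟨y⟩` acts freely on the nonzero vectors of `W`, so `r` divides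
`q^(dim W) - 1` and the number of nonzero singular vectors of `W`; the latter is
`(q^e - 1)(q^(e-1) + 1)` or `(q^e + 1)(q^(e-1) - 1)` according to the type.
-/

set_option autoImplicit false
open scoped MatrixGroups
open Matrix

namespace Cfsg.Agent.Lib.Helper67.OTSP

open Cfsg.Agent.Lib.Helper23.OHyp Cfsg.Agent.Lib.Helper99.OTSP Module

universe u

section free

variable {F : Type u} [Field F] [Fintype F] {ι : Type} [Fintype ι] [DecidableEq ι]

omit [Fintype F] in
/-- `fixSp y ⊓ movSp y = ⊥` when `y ^ r = 1` and `r ≠ 0` in `F`. -/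
theorem fix_mov_disjoint (y : Matrix ι ι F) (r : ℕ) (hr : (r : F) ≠ 0) (hy : y ^ r = 1)
    (v : ι → F) (h1 : v ∈ fixSp y) (h2 : v ∈ movSp y) : v = 0 := by
  have hfix : y *ᵥ v = v := by
    have h : (Matrix.toLin' y - 1) v = 0 := h1
    rw [LinearMap.sub_apply, Matrix.toLin'_apply, Module.End.one_apply, sub_eq_zero] at h
    exact h
  obtain ⟨u, hu⟩ := h2
  have hu' : v = (y - 1) *ᵥ u := by
    rw [LinearMap.sub_apply, Matrix.toLin'_apply, Module.End.one_apply] at hu
    rw [Matrix.sub_mulVec, Matrix.one_mulVec, hu]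
  have hpow : ∀ k : ℕ, (y ^ k) *ᵥ v = v := by
    intro k
    induction k with
    | zero => simp
    | succ k ih => rw [pow_succ, ← Matrix.mulVec_mulVec, hfix, ih]
  have hsum : (∑ j ∈ Finset.range r, y ^ j) *ᵥ v = (r : F) • v := by
    rw [Matrix.sum_mulVec]
    simp only [hpow, Finset.sum_const, Finset.card_range]
    rw [Nat.cast_smul_eq_nsmul]
  have hgeom : (∑ j ∈ Finset.range r, y ^ j) * (y - 1) = y ^ r - 1 := geom_sum_mul y r
  have h3 : (∑ j ∈ Finset.range r, y ^ j) *ᵥ v = 0 := by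
    rw [hu', Matrix.mulVec_mulVec, hgeom, hy, sub_self, Matrix.zero_mulVec]
  rw [hsum] at h3
  exact (smul_eq_zero.1 h3).resolve_left hr

/-- a `y`-invariant set of nonzero vectors of `movSp y` has cardinality divisible by `r` -/
theorem dvd_card_of_free (y : Matrix ι ι F) (r : ℕ) [Fact r.Prime] (hrF : (r : F) ≠ 0)
    (hy : y ^ r = 1) (P : (ι → F) → Prop) (hP0 : ∀ w, P w → w ∈ movSp y ∧ w ≠ 0)
    (hPy : ∀ w, P w → P (y *ᵥ w)) : r ∣ Nat.card {w : ι → F // P w} := by
  classical
  have : Fintype {w : ι → F // P w} := Fintype.ofFinite _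
  let f : Function.End {w : ι → F // P w} := fun w => ⟨y *ᵥ w.1, hPy w.1 w.2⟩
  have hfk : ∀ (k : ℕ) (w : {w : ι → F // P w}), ((f ^ k) w).1 = (y ^ k) *ᵥ w.1 := by
    intro k
    induction k with
    | zero =>
      intro w
      rw [pow_zero, pow_zero, Matrix.one_mulVec]
      rfl
    | succ k ih =>
      intro w
      rw [pow_succ', pow_succ', ← Matrix.mulVec_mulVec, ← ih w]
      rfl
  have hfr : f ^ r ^ 1 = 1 := by
    rw [pow_one]
    funext w
    apply Subtype.ext
    rw [hfk, hy, Matrix.one_mulVec]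
    rfl
  have hmod := Equiv.Perm.card_fixedPoints_modEq (p := r) (n := 1) hfr
  have hempty : Fintype.card (Function.fixedPoints f) = 0 := by
    rw [Fintype.card_eq_zero_iff]
    refine ⟨fun w => ?_⟩
    obtain ⟨w, hw⟩ := w
    have h1 : y *ᵥ w.1 = w.1 := congrArg Subtype.val hw
    have h2 : w.1 ∈ fixSp y := by
      show (Matrix.toLin' y - 1) w.1 = 0
      rw [LinearMap.sub_apply, Matrix.toLin'_apply, Module.End.one_apply, h1, sub_self]
    exact (hP0 w.1 w.2).2 (fix_mov_disjoint y r hrF hy w.1 h2 (hP0 w.1 w.2).1)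
  rw [hempty] at hmod
  rw [Nat.card_eq_fintype_card]
  exact (Nat.modEq_zero_iff_dvd).1 hmod

end free

/-- [TYPEW] -/
theorem pkgTypeW : PkgTypeW.{u} := by
  intro F _ _ ι _ _ Q r y hstd hev W hWN hInv hNd
  classical
  obtain ⟨Q', rfl, hnd⟩ := Cfsg.Agent.Lib.Helper44.exists_quadraticForm_of_geo hstd.nondeg
  have hrP := hstd.prime
  have : Fact r.Prime := ⟨hrP⟩
  obtain ⟨hi1, -, hordm, hordp⟩ := Cfsg.Agent.Lib.Helper53.OTSP.pkgOrd (Fintype.card F) r hrP
    hstd.ne_two hstd.ndvd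
  have hq : 2 ≤ Fintype.card F := Fintype.one_lt_card
  have hrF : (r : F) ≠ 0 := by
    intro h
    obtain ⟨p, hp⟩ := CharP.exists F
    have := hp
    have hpP : p.Prime := CharP.char_is_prime F p
    have : Fact p.Prime := ⟨hpP⟩
    have h1 : p ∣ r := (CharP.cast_eq_zero_iff F p r).1 h
    have h2 : p = r := (Nat.prime_dvd_prime_iff_eq hpP hrP).1 h1
    have h3 : p ∣ Fintype.card F := Cfsg.Agent.Lib.Helper40.Elusive.char_dvd_card p
    exact hstd.ndvd (h2 ▸ h3)
  have hyW : ∀ w ∈ W, y *ᵥ w ∈ W := by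
    intro w hw
    have := hInv (Submodule.mem_map_of_mem hw)
    rwa [Matrix.toLin'_apply] at this
  have hy0 : ∀ w : ι → F, w ≠ 0 → y *ᵥ w ≠ 0 := by
    intro w hw h
    apply hw
    have h1 : (y ^ (r - 1) * y) *ᵥ w = 0 := by
      rw [← Matrix.mulVec_mulVec, h, Matrix.mulVec_zero]
    rwa [← pow_succ, Nat.sub_add_cancel hrP.pos, hstd.pow, Matrix.one_mulVec] at h1
  -- all nonzero vectors of `W`
  have hc1 : r ∣ Fintype.card F ^ finrank F W - 1 := by
    have h := dvd_card_of_free y r hrF hstd.pow (fun w => w ∈ W ∧ w ≠ 0)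
      (fun w hw => ⟨hWN hw.1, hw.2⟩) (fun w hw => ⟨hyW w hw.1, hy0 w hw.2⟩)
    have h2 : Nat.card {w : ι → F // w ∈ W ∧ w ≠ 0} = Fintype.card F ^ finrank F W - 1 := by
      have hs : {w : ι → F | w ∈ W ∧ w ≠ 0} = (W : Set (ι → F)) \ {0} := by
        ext w
        simp
      have e1 : Nat.card {w : ι → F // w ∈ W ∧ w ≠ 0} =
          ({w : ι → F | w ∈ W ∧ w ≠ 0}).ncard := rfl
      rw [e1, hs, Set.ncard_sdiff (by simp), Set.ncard_singleton]
      have e2 : (W : Set (ι → F)).ncard = Nat.card W := rfl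
      rw [e2, Nat.card_eq_fintype_card, Module.card_eq_pow_finrank (K := F)]
    rwa [h2] at h
  obtain ⟨j, hj⟩ := hordm _ hc1
  obtain ⟨h, hh⟩ := hev
  have hh1 : 1 ≤ h := by omega
  rw [hj, Nat.mul_div_cancel_left _ (by omega)]
  rcases Nat.eq_zero_or_pos j with hj0 | hjpos
  · subst hj0
    constructor
    · intro _
      exact ⟨0, rfl⟩
    · intro _
      refine ⟨⊥, bot_le, fun w hw => ?_, ?_⟩
      · rw [(Submodule.mem_bot F).1 hw, map_zero]
      · rw [finrank_bot, hj, Nat.mul_zero, Nat.mul_zero]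
  · obtain ⟨e, he⟩ : ∃ e, e = h * j := ⟨_, rfl⟩
    have he1 : 1 ≤ e := by
      rw [he]
      exact Nat.mul_pos hh1 hjpos
    have hdim : finrank F W = 2 * e := by
      rw [hj, hh, he]
      ring
    have hQW : ∀ w : W, (Q'.comp W.subtype) w = Q' (w : ι → F) := fun w => rfl
    have hpolW : ∀ u v : W, QuadraticMap.polar (Q'.comp W.subtype) u v =
        QuadraticMap.polar Q' (u : ι → F) (v : ι → F) := by
      intro u v
      simp only [QuadraticMap.polar, hQW]
      rfl
    have hndW : Cfsg.Agent.Lib.Helper99.QNondegOn (Q'.comp W.subtype) ⊤ := by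
      intro u _ hu
      by_contra hu0
      have hu0' : (u : ι → F) ≠ 0 := fun h => hu0 (Subtype.ext h)
      obtain ⟨x, hx, hne⟩ := (hNd u u.2 hu0').2
      exact hne (by rw [← hpolW u ⟨x, hx⟩]; exact hu ⟨x, hx⟩ Submodule.mem_top)
    have hndW' : (Q'.comp W.subtype).polarBilin.Nondegenerate := by
      constructor
      · intro u hu
        exact hndW u Submodule.mem_top (fun v _ => hu v)
      · intro v hv
        by_contra hv0
        have hv0' : (v : ι → F) ≠ 0 := fun h => hv0 (Subtype.ext h)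
        obtain ⟨x, hx, hne⟩ := (hNd v v.2 hv0').1
        exact hne (by rw [← hpolW ⟨x, hx⟩ v]; exact hv ⟨x, hx⟩)
    have hzero : Nat.card {w : ι → F // w ∈ W ∧ Q' w = 0} =
        Nat.card {v : W // (Q'.comp W.subtype) v = 0} :=
      Nat.card_congr
        { toFun := fun w => ⟨⟨w.1, w.2.1⟩, w.2.2⟩
          invFun := fun v => ⟨v.1.1, v.1.2, v.2⟩
          left_inv := fun w => rfl
          right_inv := fun v => rfl }
    have hc2 : r ∣ Nat.card {w : ι → F // w ∈ W ∧ Q' w = 0} - 1 := by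
      have h := dvd_card_of_free y r hrF hstd.pow (fun w => (w ∈ W ∧ Q' w = 0) ∧ w ≠ 0)
        (fun w hw => ⟨hWN hw.1.1, hw.2⟩)
        (fun w hw => ⟨⟨hyW w hw.1.1, by rw [hstd.isom]; exact hw.1.2⟩, hy0 w hw.2⟩)
      have h2 : Nat.card {w : ι → F // (w ∈ W ∧ Q' w = 0) ∧ w ≠ 0} =
          Nat.card {w : ι → F // w ∈ W ∧ Q' w = 0} - 1 := by
        have hs : {w : ι → F | (w ∈ W ∧ Q' w = 0) ∧ w ≠ 0} =
            {w : ι → F | w ∈ W ∧ Q' w = 0} \ {0} := by
          ext w
          simp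
        have e1 : Nat.card {w : ι → F // (w ∈ W ∧ Q' w = 0) ∧ w ≠ 0} =
            ({w : ι → F | (w ∈ W ∧ Q' w = 0) ∧ w ≠ 0}).ncard := rfl
        rw [e1, hs, Set.ncard_sdiff (by simp), Set.ncard_singleton]
        rfl
      rwa [h2] at h
    obtain ⟨f, hf⟩ : ∃ f, e = f + 1 := ⟨e - 1, by omega⟩
    have hhj : h * j = f + 1 := by rw [← he, hf]
    have e2 : (h + h) / 2 = h := by omega
    by_cases hP : Plus (⇑Q') W
    · refine iff_of_true hP ?_
      obtain ⟨U, hUW, hUts, hUd⟩ := hP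
      have hz := card_zeros_plus_space (Q'.comp W.subtype) hndW e he1 hdim
        (U.comap W.subtype) (fun u hu => hUts _ hu) (by
          rw [(Submodule.comapSubtypeEquivOfLe hUW).finrank_eq]
          omega)
      rw [hzero, hz, hf, Cfsg.Agent.Lib.Helper67.OTS.fibP_id _ f (by omega)] at hc2
      rcases (Nat.Prime.dvd_mul hrP).1 hc2 with h5 | h5
      · obtain ⟨c, hc⟩ := hordm _ h5
        have h6 : h * j = h * (c + c) := by
          rw [hhj, hc, hh]
          ring
        exact ⟨c, Nat.eq_of_mul_eq_mul_left hh1 h6⟩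
      · obtain ⟨-, hmod⟩ := hordp _ h5
        rw [hh, Nat.add_sub_cancel, e2] at hmod
        have hdm := Nat.div_add_mod f (h + h)
        rw [hmod] at hdm
        have hA : h * j = h * (2 * (f / (h + h)) + 1) + 1 := by
          rw [hhj]
          have : f = h * (2 * (f / (h + h)) + 1) := by
            conv_lhs => rw [← hdm]
            ring
          omega
        have h7 : h ∣ 1 :=
          (Nat.dvd_add_right (dvd_mul_right h _)).1 (hA ▸ dvd_mul_right h j)
        have h8 : h = 1 := Nat.dvd_one.1 h7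
        subst h8
        exact ⟨f / (1 + 1) + 1, by omega⟩
    · refine iff_of_false hP ?_
      have hz := card_zeros_minus_space (Q'.comp W.subtype) hndW' e he1 hdim (by
        rintro ⟨U', hU', hUd'⟩
        apply hP
        refine ⟨U'.map W.subtype, Submodule.map_subtype_le W U', ?_, ?_⟩
        · rintro _ ⟨u, hu, rfl⟩
          exact hU' u hu
        · rw [← (Submodule.equivSubtypeMap W U').finrank_eq]
          omega)
      rw [hzero, hz, hf, Cfsg.Agent.Lib.Helper67.OTS.fibM_id _ f (by omega)] at hc2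
      rw [Nat.not_even_iff_odd]
      rcases (Nat.Prime.dvd_mul hrP).1 hc2 with h5 | h5
      · obtain ⟨-, hmod⟩ := hordp _ h5
        rw [hh, e2] at hmod
        have hdm := Nat.div_add_mod (f + 1) (h + h)
        rw [hmod] at hdm
        have h6 : h * j = h * (2 * ((f + 1) / (h + h)) + 1) := by
          rw [hhj]
          conv_lhs => rw [← hdm]
          ring
        exact ⟨(f + 1) / (h + h), Nat.eq_of_mul_eq_mul_left hh1 h6⟩
      · obtain ⟨c, hc⟩ := hordm _ h5
        have hA : h * j = h * (2 * c) + 1 := by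
          rw [hhj, hc, hh]
          ring
        have h7 : h ∣ 1 :=
          (Nat.dvd_add_right (dvd_mul_right h _)).1 (hA ▸ dvd_mul_right h j)
        have h8 : h = 1 := Nat.dvd_one.1 h7
        subst h8
        exact ⟨c, by omega⟩

/-- [TYPEN] from [SPLIT] -/
theorem pkgTypeN_of (hS : Cfsg.Agent.Lib.Helper99.OTSP.PkgSplit.{u}) :
    Cfsg.Agent.Lib.Helper99.OTSP.PkgTypeN.{u} := by
  intro F _ _ ι _ _ Q r y hstd hev
  obtain ⟨-, -, hInv, -, hNd, -⟩ := hS F ι Q r y hstd
  exact pkgTypeW F ι Q r y hstd hev (movSp y) le_rfl hInv hNd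

end Cfsg.Agent.Lib.Helper67.OTSP
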