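import Mathlib
import Cfsg.Agent.Lib.Helper99.OTSP.PairsDefs
import Cfsg.Agent.Lib.Helper53.OTSP.Ord
import Cfsg.Agent.Lib.Helper44.SiegelOmega

/-!
# OTSP (S5973), package [PAIRC] (all characteristics)

`i = ord_r(q)` even, `M ≤ movSp y` invariant, nondegenerate, of dimension `2 i`, every nonzero
vector of `M` in an invariant subspace of dimension `i`: then `M` contains a nonzero invariant
totally singular subspace.  Counting argument: the invariant `i`-subspaces partition `M \ 0`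
into `q^i + 1` classes; if none is totally singular each is nondegenerate of minus type, and
the count of singular vectors of `M` (plus type) is contradicted.
-/

set_option autoImplicit false
open scoped MatrixGroups
open Matrix

namespace Cfsg.Agent.Lib.Helper67.OTSP

open Cfsg.Agent.Lib.Helper23.OHyp Cfsg.Agent.Lib.Helper99.OTSP Module

universe u

/-- the final arithmetic contradiction of [PAIRC] -/
theorem pairc_arith (q k nL s sz zM : ℕ) (hq : 2 ≤ q)
    (e1 : s + nL = nL * q ^ (k + 1 + (k + 1)))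
    (e2 : s + 1 = q ^ (2 * (k + 1 + (k + 1))))
    (e3 : sz + nL + nL * q ^ (k + 1) = nL * (q ^ (2 * (k + 1) - 1) + q ^ (k + 1 - 1)))
    (e4 : sz + 1 = zM)
    (e5 : zM + q ^ (k + 1 + (k + 1) - 1) =
      q ^ (2 * (k + 1 + (k + 1)) - 1) + q ^ (k + 1 + (k + 1))) : False := by
  obtain ⟨A, hA⟩ : ∃ A, A = q ^ k := ⟨_, rfl⟩
  have hA0 : 1 ≤ A := by
    rw [hA]
    exact Nat.one_le_pow _ _ (by omega)
  have p1 : q ^ (k + 1 + (k + 1)) = q ^ 2 * A ^ 2 := by
    rw [hA]
    ring
  have p2 : q ^ (2 * (k + 1 + (k + 1))) = q ^ 4 * A ^ 4 := by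
    rw [hA]
    ring
  have p3 : q ^ (k + 1) = q * A := by
    rw [hA]
    ring
  have p4 : q ^ (2 * (k + 1) - 1) = q * A ^ 2 := by
    have : 2 * (k + 1) - 1 = 2 * k + 1 := by omega
    rw [this, hA]
    ring
  have p5 : q ^ (k + 1 - 1) = A := by
    rw [Nat.add_sub_cancel, hA]
  have p6 : q ^ (k + 1 + (k + 1) - 1) = q * A ^ 2 := by
    have : k + 1 + (k + 1) - 1 = 2 * k + 1 := by omega
    rw [this, hA]
    ring
  have p7 : q ^ (2 * (k + 1 + (k + 1)) - 1) = q ^ 3 * A ^ 4 := by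
    have : 2 * (k + 1 + (k + 1)) - 1 = 4 * k + 3 := by omega
    rw [this, hA]
    ring
  rw [p6, p7, p1] at e5
  rw [p1] at e1
  rw [p2] at e2
  rw [p3, p4, p5] at e3
  subst e4
  have hq' : (2 : ℤ) ≤ (q : ℤ) := by exact_mod_cast hq
  have hA' : (1 : ℤ) ≤ (A : ℤ) := by exact_mod_cast hA0
  have e1' : (s : ℤ) + nL = nL * ((q : ℤ) ^ 2 * (A : ℤ) ^ 2) := by exact_mod_cast e1
  have e2' : (s : ℤ) + 1 = (q : ℤ) ^ 4 * (A : ℤ) ^ 4 := by exact_mod_cast e2
  have e3' : (sz : ℤ) + nL + nL * ((q : ℤ) * A) = nL * ((q : ℤ) * (A : ℤ) ^ 2 + A) := by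
    exact_mod_cast e3
  have e5' : (sz : ℤ) + 1 + (q : ℤ) * (A : ℤ) ^ 2 =
      (q : ℤ) ^ 3 * (A : ℤ) ^ 4 + (q : ℤ) ^ 2 * (A : ℤ) ^ 2 := by exact_mod_cast e5
  have hqA : (2 : ℤ) ≤ (q : ℤ) * A := by nlinarith
  have hne : ((q : ℤ) ^ 2 * (A : ℤ) ^ 2 - 1) ≠ 0 := by
    intro h0
    nlinarith
  have hnL : (nL : ℤ) = (q : ℤ) ^ 2 * (A : ℤ) ^ 2 + 1 := by
    have : ((q : ℤ) ^ 2 * (A : ℤ) ^ 2 - 1) * nL =
        ((q : ℤ) ^ 2 * (A : ℤ) ^ 2 - 1) * ((q : ℤ) ^ 2 * (A : ℤ) ^ 2 + 1) := by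
      linear_combination e2' - e1'
    exact mul_left_cancel₀ hne this
  rw [hnL] at e3'
  have key : ((q : ℤ) - 1) * (2 * q * (A : ℤ) ^ 2 + (q : ℤ) ^ 2 * (A : ℤ) ^ 3 + A) = 0 := by
    linear_combination e3' - e5'
  have hpos : (0 : ℤ) < ((q : ℤ) - 1) * (2 * q * (A : ℤ) ^ 2 + (q : ℤ) ^ 2 * (A : ℤ) ^ 3 + A) :=
    mul_pos (by linarith) (add_pos_of_nonneg_of_pos (by positivity) (by linarith))
  rw [key] at hpos
  exact lt_irrefl _ hpos

/-- counting the nonzero elements of a finite set containing `0` -/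
theorem card_filter_ne_zero_add_one {α : Type*} [Fintype α] [DecidableEq α] [Zero α]
    (P : α → Prop) [DecidablePred P] (h0 : P 0) :
    (Finset.univ.filter (fun a => P a ∧ a ≠ 0)).card + 1 = Nat.card {w : α // P w} := by
  rw [Nat.card_eq_fintype_card, Fintype.card_subtype]
  have : Finset.univ.filter P = insert 0 (Finset.univ.filter (fun a => P a ∧ a ≠ 0)) := by
    ext a
    simp only [Finset.mem_filter, Finset.mem_univ, true_and, Finset.mem_insert]
    constructor
    · intro h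
      by_cases ha : a = 0
      · exact Or.inl ha
      · exact Or.inr ⟨h, ha⟩
    · rintro (rfl | h)
      · exact h0
      · exact h.1
  rw [this, Finset.card_insert_of_notMem (by simp)]

/-- [PAIRC] from [TYPEW], [ZCNT], [TITS], [DIMI] -/
theorem pkgPairC_of (hT : PkgTypeW.{u}) (hZ : PkgZCnt.{u}) (hTi : PkgTiTs.{u})
    (hD : PkgDimI.{u}) : PkgPairC.{u} := by
  intro F _ _ ι _ _ Q r y hstd hev M hMN hMinv hMNd hMdim hcov
  classical
  obtain ⟨Q', rfl, hnd⟩ := Cfsg.Agent.Lib.Helper44.exists_quadraticForm_of_geo hstd.nondeg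
  by_contra hcon
  have hrP := hstd.prime
  obtain ⟨hi1, -, -, -⟩ := Cfsg.Agent.Lib.Helper53.OTSP.pkgOrd (Fintype.card F) r hrP
    hstd.ne_two hstd.ndvd
  have hTW := hT F ι (⇑Q') r y hstd hev
  have hDI := hD F ι (⇑Q') r y hstd
  obtain ⟨i, hi⟩ : ∃ i, i = ordI (Fintype.card F) r := ⟨_, rfl⟩
  rw [← hi] at hev hMdim hcov hi1 hTW hDI
  have hq : 2 ≤ Fintype.card F := Fintype.one_lt_card
  obtain ⟨h, hh⟩ := hev
  obtain ⟨k, hk⟩ : ∃ k, h = k + 1 := ⟨h - 1, by omega⟩
  subst hk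
  have inv_iff : ∀ W : Submodule F (ι → F), Inv y W ↔ ∀ w ∈ W, y *ᵥ w ∈ W := by
    intro W
    unfold Cfsg.Agent.Lib.Helper23.OHyp.Inv
    rw [Submodule.map_le_iff_le_comap]
    constructor
    · intro h w hw
      have h1 := h hw
      simpa [Matrix.toLin'_apply] using h1
    · intro h w hw
      show Matrix.toLin' y w ∈ W
      rw [Matrix.toLin'_apply]
      exact h w hw
  have hpow : ∀ W : Submodule F (ι → F), Inv y W → ∀ (n : ℕ) (w : ι → F), w ∈ W →
      (y ^ n) *ᵥ w ∈ W := by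
    intro W hW n
    induction n with
    | zero =>
      intro w hw
      rwa [pow_zero, Matrix.one_mulVec]
    | succ n ih =>
      intro w hw
      rw [pow_succ', ← Matrix.mulVec_mulVec]
      exact (inv_iff W).1 hW _ (ih w hw)
  have polar_isom : ∀ u v : ι → F, QuadraticMap.polar (⇑Q') (y *ᵥ u) (y *ᵥ v) =
      QuadraticMap.polar (⇑Q') u v := by
    intro u v
    unfold QuadraticMap.polar
    rw [← Matrix.mulVec_add, hstd.isom, hstd.isom, hstd.isom]
  -- uniqueness of the invariant `i`-space through a nonzero vector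
  have huniq : ∀ U U' : Submodule F (ι → F), U ≤ M → Inv y U → finrank F U = i → U' ≤ M →
      Inv y U' → finrank F U' = i → ∀ v : ι → F, v ≠ 0 → v ∈ U → v ∈ U' → U = U' := by
    intro U U' hUM hUinv hUd hU'M hU'inv hU'd v hv0 hvU hvU'
    have hinf : Inv y (U ⊓ U') := by
      rw [inv_iff]
      intro w hw
      exact ⟨(inv_iff U).1 hUinv w hw.1, (inv_iff U').1 hU'inv w hw.2⟩
    have hdvd := hDI (U ⊓ U') (inf_le_left.trans (hUM.trans hMN)) hinf
    have hpos : 0 < finrank F (U ⊓ U' : Submodule F (ι → F)) := by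
      rw [Module.finrank_pos_iff_exists_ne_zero]
      exact ⟨⟨v, hvU, hvU'⟩, fun h => hv0 (congrArg Subtype.val h)⟩
    have hge : i ≤ finrank F (U ⊓ U' : Submodule F (ι → F)) := Nat.le_of_dvd hpos hdvd
    have h1 : U ⊓ U' = U := Submodule.eq_of_le_of_finrank_le inf_le_left (by rw [hUd]; exact hge)
    have h2 : U ⊓ U' = U' :=
      Submodule.eq_of_le_of_finrank_le inf_le_right (by rw [hU'd]; exact hge)
    rw [← h1]
    exact h2
  -- an invariant `i`-space of `M` is nondegenerate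
  have hUnd : ∀ U : Submodule F (ι → F), U ≤ M → Inv y U → finrank F U = i → Nd (⇑Q') U := by
    intro U hUM hUinv hUd
    let R : Submodule F (ι → F) :=
      { carrier := {u | u ∈ U ∧ ∀ w ∈ U, QuadraticMap.polar (⇑Q') u w = 0}
        add_mem' := fun {a b} ha hb => ⟨U.add_mem ha.1 hb.1, fun w hw => by
          rw [QuadraticMap.polar_add_left, ha.2 w hw, hb.2 w hw, add_zero]⟩
        zero_mem' := ⟨U.zero_mem, fun w hw => by rw [QuadraticMap.polar_zero_left]⟩
        smul_mem' := fun c a ha => ⟨U.smul_mem c ha.1, fun w hw => by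
          rw [QuadraticMap.polar_smul_left, ha.2 w hw, smul_zero]⟩ }
    have hRU : R ≤ U := fun u hu => hu.1
    have hRinv : Inv y R := by
      rw [inv_iff]
      intro u hu
      refine ⟨(inv_iff U).1 hUinv u hu.1, fun w hw => ?_⟩
      have hw' : (y ^ (r - 1)) *ᵥ w ∈ U := hpow U hUinv (r - 1) w hw
      have e : y *ᵥ ((y ^ (r - 1)) *ᵥ w) = w := by
        rw [Matrix.mulVec_mulVec, ← pow_succ', Nat.sub_add_cancel hrP.pos, hstd.pow,
          Matrix.one_mulVec]
      rw [← e, polar_isom]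
      exact hu.2 _ hw'
    have hdvd := hDI R (hRU.trans (hUM.trans hMN)) hRinv
    have hle : finrank F R ≤ i := hUd ▸ Submodule.finrank_mono hRU
    rcases Nat.eq_zero_or_pos (finrank F R) with h0 | hpos
    · have hRbot : R = ⊥ := Submodule.finrank_eq_zero.1 h0
      intro u hu hu0
      have hex : ∃ x ∈ U, QuadraticMap.polar (⇑Q') u x ≠ 0 := by
        by_contra hno
        have hm : u ∈ R := ⟨hu, fun x hx => by
          by_contra hx0
          exact hno ⟨x, hx, hx0⟩⟩
        rw [hRbot] at hm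
        exact hu0 ((Submodule.mem_bot F).1 hm)
      obtain ⟨x, hx, hne⟩ := hex
      exact ⟨⟨x, hx, by rwa [QuadraticMap.polar_comm]⟩, ⟨x, hx, hne⟩⟩
    · have hge : i ≤ finrank F R := Nat.le_of_dvd hpos hdvd
      have hReq : R = U := Submodule.eq_of_le_of_finrank_le hRU (by rw [hUd]; exact hge)
      exfalso
      apply hcon
      refine ⟨U, hUM, hUinv, hTi F ι (⇑Q') r y hstd U (hUM.trans hMN) hUinv ?_, ?_⟩
      · intro u hu v hv
        have hm : u ∈ R := hReq ▸ hu
        exact hm.2 v hv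
      · intro hbot
        rw [hbot, finrank_bot] at hUd
        omega
  -- zero counts
  have hzU : ∀ U : Submodule F (ι → F), U ≤ M → Inv y U → finrank F U = i →
      Nat.card {w : ι → F // w ∈ U ∧ Q' w = 0} + Fintype.card F ^ (k + 1) =
        Fintype.card F ^ (2 * (k + 1) - 1) + Fintype.card F ^ (k + 1 - 1) := by
    intro U hUM hUinv hUd
    have hN := hUnd U hUM hUinv hUd
    have hnp : ¬ Plus (⇑Q') U := by
      rw [hTW U (hUM.trans hMN) hUinv hN, hUd, Nat.div_self (by omega)]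
      decide
    exact (hZ F ι (⇑Q') hstd.nondeg U (k + 1) hN (by rw [hUd, hh]; ring) (by omega)).2 hnp
  have hzM : Nat.card {w : ι → F // w ∈ M ∧ Q' w = 0} +
      Fintype.card F ^ (k + 1 + (k + 1) - 1) =
      Fintype.card F ^ (2 * (k + 1 + (k + 1)) - 1) + Fintype.card F ^ (k + 1 + (k + 1)) := by
    have hp : Plus (⇑Q') M := by
      rw [hTW M hMN hMinv hMNd, hMdim, Nat.mul_div_cancel _ (by omega)]
      decide
    exact (hZ F ι (⇑Q') hstd.nondeg M (k + 1 + (k + 1)) hMNd (by rw [hMdim, hh]) (by omega)).1 hp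
  -- the classes
  let ℓ : (ι → F) → Submodule F (ι → F) := fun v =>
    if hv : v ∈ M ∧ v ≠ 0 then Classical.choose (hcov v hv.1 hv.2) else ⊥
  have hℓ : ∀ v : ι → F, v ∈ M → v ≠ 0 →
      ℓ v ≤ M ∧ Inv y (ℓ v) ∧ v ∈ ℓ v ∧ finrank F (ℓ v) = i := by
    intro v hv hv0
    have hℓv : ℓ v = Classical.choose (hcov v hv hv0) := dif_pos ⟨hv, hv0⟩
    rw [hℓv]
    exact Classical.choose_spec (hcov v hv hv0)
  let S : Finset (ι → F) := Finset.univ.filter (fun v => v ∈ M ∧ v ≠ 0)
  let L : Finset (Submodule F (ι → F)) := S.image ℓ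
  have hfib : ∀ b ∈ L, S.filter (fun a => ℓ a = b) =
      Finset.univ.filter (fun a : ι → F => a ∈ b ∧ a ≠ 0) := by
    intro b hb
    obtain ⟨v0, hv0S, rfl⟩ := Finset.mem_image.1 hb
    have hv0 : v0 ∈ M ∧ v0 ≠ 0 := by simpa [S] using hv0S
    obtain ⟨c1, c2, c3, c4⟩ := hℓ v0 hv0.1 hv0.2
    ext a
    simp only [S, Finset.mem_filter, Finset.mem_univ, true_and]
    constructor
    · rintro ⟨⟨haM, ha0⟩, hab⟩
      exact ⟨hab ▸ (hℓ a haM ha0).2.2.1, ha0⟩
    · rintro ⟨hab, ha0⟩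
      have haM : a ∈ M := c1 hab
      obtain ⟨d1, d2, d3, d4⟩ := hℓ a haM ha0
      exact ⟨⟨haM, ha0⟩, huniq _ _ d1 d2 d4 c1 c2 c4 a ha0 d3 hab⟩
  have hbL : ∀ b ∈ L, b ≤ M ∧ Inv y b ∧ finrank F b = i := by
    intro b hb
    obtain ⟨v0, hv0S, rfl⟩ := Finset.mem_image.1 hb
    have hv0 : v0 ∈ M ∧ v0 ≠ 0 := by simpa [S] using hv0S
    obtain ⟨c1, c2, c3, c4⟩ := hℓ v0 hv0.1 hv0.2
    exact ⟨c1, c2, c4⟩
  -- first count: all nonzero vectors
  have hS1 : S.card + 1 = Fintype.card F ^ (2 * (k + 1 + (k + 1))) := by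
    have h1 := card_filter_ne_zero_add_one (fun v : ι → F => v ∈ M) M.zero_mem
    have h2 : Nat.card {w : ι → F // w ∈ M} = Fintype.card F ^ finrank F M := by
      have e2 : Nat.card {w : ι → F // w ∈ M} = Nat.card M := rfl
      rw [e2, Nat.card_eq_fintype_card, Module.card_eq_pow_finrank (K := F)]
    rw [h2, hMdim, hh] at h1
    exact h1
  have hS2 : S.card + L.card = L.card * Fintype.card F ^ (k + 1 + (k + 1)) := by
    have h1 : S.card = ∑ b ∈ L, (S.filter (fun a => ℓ a = b)).card :=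
      Finset.card_eq_sum_card_fiberwise (fun x hx => Finset.mem_image_of_mem ℓ hx)
    have h2 : ∑ b ∈ L, ((S.filter (fun a => ℓ a = b)).card + 1) =
        ∑ b ∈ L, Fintype.card F ^ (k + 1 + (k + 1)) := by
      refine Finset.sum_congr rfl (fun b hb => ?_)
      rw [hfib b hb]
      have h3 := card_filter_ne_zero_add_one (fun v : ι → F => v ∈ b) b.zero_mem
      have h4 : Nat.card {w : ι → F // w ∈ b} = Fintype.card F ^ finrank F b := by
        have e2 : Nat.card {w : ι → F // w ∈ b} = Nat.card b := rfl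
        rw [e2, Nat.card_eq_fintype_card, Module.card_eq_pow_finrank (K := F)]
      rw [h4, (hbL b hb).2.2, hh] at h3
      exact h3
    rw [Finset.sum_add_distrib, ← h1, Finset.sum_const, Finset.sum_const, smul_eq_mul,
      smul_eq_mul, mul_one] at h2
    exact h2
  -- second count: nonzero singular vectors
  let SZ : Finset (ι → F) := S.filter (fun v => Q' v = 0)
  have hZ1 : SZ.card + 1 = Nat.card {w : ι → F // w ∈ M ∧ Q' w = 0} := by
    have h1 := card_filter_ne_zero_add_one (fun v : ι → F => v ∈ M ∧ Q' v = 0)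
      ⟨M.zero_mem, map_zero Q'⟩
    rw [← h1]
    congr 2
    ext a
    simp only [SZ, S, Finset.mem_filter, Finset.mem_univ, true_and]
    tauto
  have hZ2 : SZ.card + L.card + L.card * Fintype.card F ^ (k + 1) =
      L.card * (Fintype.card F ^ (2 * (k + 1) - 1) + Fintype.card F ^ (k + 1 - 1)) := by
    have h1 : SZ.card = ∑ b ∈ L, (SZ.filter (fun a => ℓ a = b)).card :=
      Finset.card_eq_sum_card_fiberwise (fun x hx =>
        Finset.mem_image_of_mem ℓ (Finset.mem_filter.1 hx).1)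
    have h2 : ∑ b ∈ L, ((SZ.filter (fun a => ℓ a = b)).card + 1 + Fintype.card F ^ (k + 1)) =
        ∑ b ∈ L, (Fintype.card F ^ (2 * (k + 1) - 1) + Fintype.card F ^ (k + 1 - 1)) := by
      refine Finset.sum_congr rfl (fun b hb => ?_)
      obtain ⟨b1, b2, b3⟩ := hbL b hb
      rw [← hzU b b1 b2 b3]
      congr 1
      have h3 := card_filter_ne_zero_add_one (fun v : ι → F => v ∈ b ∧ Q' v = 0)
        ⟨b.zero_mem, map_zero Q'⟩
      rw [← h3]
      congr 2
      have h5 := hfib b hb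
      ext a
      have h6 := Finset.ext_iff.1 h5 a
      simp only [Finset.mem_filter, Finset.mem_univ, true_and] at h6
      simp only [SZ, Finset.mem_filter, Finset.mem_univ, true_and]
      tauto
    rw [Finset.sum_add_distrib, Finset.sum_add_distrib, ← h1, Finset.sum_const,
      Finset.sum_const, Finset.sum_const, smul_eq_mul, smul_eq_mul, smul_eq_mul, mul_one] at h2
    exact h2
  exact pairc_arith (Fintype.card F) k L.card S.card SZ.card _ hq hS2 hS1 hZ2 hZ1 hzM

end Cfsg.Agent.Lib.Helper67.OTSP
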