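import Mathlib
import Cfsg.Agent.Lib.Helper99.OTSP.PairsDefs
import Cfsg.Agent.Lib.Helper44.SiegelOmega
import Cfsg.Agent.Lib.Helper67.OTSP.Zeros

/-!
# OTSP (S5973), package [ZCNT] (all characteristics)

The number of singular vectors of a nondegenerate subspace `W` of dimension `2 e` of a
quadratic space over a finite field: `q^(2e-1) + q^e - q^(e-1)` for plus type and
`q^(2e-1) - q^e + q^(e-1)` otherwise.  From `Zeros.lean` applied to `Q.comp W.subtype`.
-/

set_option autoImplicit false
open scoped MatrixGroups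
open Matrix

namespace Cfsg.Agent.Lib.Helper67.OTSP

open Cfsg.Agent.Lib.Helper23.OHyp Cfsg.Agent.Lib.Helper99.OTSP Module

universe u

/-- [ZCNT] -/
theorem pkgZCnt : Cfsg.Agent.Lib.Helper99.OTSP.PkgZCnt.{u} := by
  intro F _ _ ι _ _ Q hQ W e hNd hdim he1
  classical
  obtain ⟨Q', rfl, hnd⟩ := Cfsg.Agent.Lib.Helper44.exists_quadraticForm_of_geo hQ
  have hq : 2 ≤ Fintype.card F := Fintype.one_lt_card
  have hQW : ∀ w : W, (Q'.comp W.subtype) w = Q' (w : ι → F) := fun w => rfl
  have hpolW : ∀ u v : W, QuadraticMap.polar (Q'.comp W.subtype) u v =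
      QuadraticMap.polar Q' (u : ι → F) (v : ι → F) := by
    intro u v
    simp only [QuadraticMap.polar, hQW]
    rfl
  have hndW : Cfsg.Agent.Lib.Helper99.QNondegOn (Q'.comp W.subtype) ⊤ := by
    intro u _ hu
    by_contra hu0
    have hu0' : (u : ι → F) ≠ 0 := fun h => hu0 (Subtype.ext h)
    obtain ⟨x, hx, hne⟩ := (hNd u u.2 hu0').2
    exact hne (by rw [← hpolW u ⟨x, hx⟩]; exact hu ⟨x, hx⟩ Submodule.mem_top)
  have hndW' : (Q'.comp W.subtype).polarBilin.Nondegenerate := by
    constructor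
    · intro u hu
      exact hndW u Submodule.mem_top (fun v _ => hu v)
    · intro v hv
      by_contra hv0
      have hv0' : (v : ι → F) ≠ 0 := fun h => hv0 (Subtype.ext h)
      obtain ⟨x, hx, hne⟩ := (hNd v v.2 hv0').1
      exact hne (by rw [← hpolW ⟨x, hx⟩ v]; exact hv ⟨x, hx⟩)
  have hzero : Nat.card {w : ι → F // w ∈ W ∧ Q' w = 0} =
      Nat.card {v : W // (Q'.comp W.subtype) v = 0} :=
    Nat.card_congr
      { toFun := fun w => ⟨⟨w.1, w.2.1⟩, w.2.2⟩
        invFun := fun v => ⟨v.1.1, v.1.2, v.2⟩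
        left_inv := fun w => rfl
        right_inv := fun v => rfl }
  have hp1 : Fintype.card F ^ (e - 1) ≤ Fintype.card F ^ e :=
    Nat.pow_le_pow_right (by omega) (by omega)
  have hp2 : Fintype.card F ^ e ≤ Fintype.card F ^ (2 * e - 1) :=
    Nat.pow_le_pow_right (by omega) (by omega)
  constructor
  · intro hP
    obtain ⟨U, hUW, hUts, hUd⟩ := hP
    have hz := card_zeros_plus_space (Q'.comp W.subtype) hndW e he1 hdim
      (U.comap W.subtype) (fun u hu => hUts _ hu) (by
        rw [(Submodule.comapSubtypeEquivOfLe hUW).finrank_eq]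
        omega)
    rw [hzero, hz]
    omega
  · intro hP
    have hz := card_zeros_minus_space (Q'.comp W.subtype) hndW' e he1 hdim (by
      rintro ⟨U', hU', hUd'⟩
      apply hP
      refine ⟨U'.map W.subtype, Submodule.map_subtype_le W U', ?_, ?_⟩
      · rintro _ ⟨u, hu, rfl⟩
        exact hU' u hu
      · rw [← (Submodule.equivSubtypeMap W U').finrank_eq]
        omega)
    rw [hzero, hz]
    omega

end Cfsg.Agent.Lib.Helper67.OTSP
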